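import Mathlib

/-!
# Project AMI (S4294, Amitsur): the number-theoretic core of step (A)

`SL(2,5) × C_p` (p ≥ 7 prime) is not a subgroup of a division ring.

Paper proof (lead, note "AMI"): by Dirichlet pick a prime `l ≡ 3 (mod 20)` with `p ∣ l + 1`.
Gauss: `4 N² Φ_l = Y² + l Z²` in `ℤ[X]`.  Thue: `2 l = r² + 5 e²`.  For `c` of order `p`:
`c^l = c⁻¹`, so `Φ_l(c) c = -1`; with `t = c^((p+1)/2)` (`t² = c`) and `s² = 5`:
`(2 Y(c) t)² + ((r + e s) Z(c) t)² + ((r - e s) Z(c) t)² + (4N)² = 0`, and then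
`q = w + x i + y j + z (i j)` satisfies `q * (w - x i - y j - z (i j)) = 0`.
-/

namespace Cfsg.Agent.Lib.Lead.Ami

universe u

/-- [DIR] Dirichlet + CRT: for a prime `p ≥ 7` there is a prime `l ≡ 3 (mod 20)` with `p ∣ l + 1`. -/
def PkgDir : Prop :=
  ∀ p : ℕ, p.Prime → 7 ≤ p → ∃ l : ℕ, l.Prime ∧ l % 20 = 3 ∧ p ∣ l + 1

/-- [THUE] a prime `l ≡ 3 (mod 20)` satisfies `2 l = r² + 5 e²` (Thue / pigeonhole). -/
def PkgThue : Prop :=
  ∀ l : ℕ, l.Prime → l % 20 = 3 → ∃ r e : ℤ, r ^ 2 + 5 * e ^ 2 = 2 * (l : ℤ)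

/-- [GAUSS] Gauss: for a prime `l ≡ 3 (mod 4)`, `4 N² Φ_l = Y² + l Z²` in `ℤ[X]` for some `N ≠ 0`
(`N = 1` is true; any non-zero `N` is enough). -/
def PkgGauss : Prop :=
  ∀ l : ℕ, l.Prime → l % 4 = 3 → ∃ (N : ℕ) (Y Z : Polynomial ℤ), N ≠ 0 ∧
    (Polynomial.C (4 * (N : ℤ) ^ 2)) * Polynomial.cyclotomic l ℤ
      = Y ^ 2 + (Polynomial.C (l : ℤ)) * Z ^ 2

/-- [ZD] the division-ring core: a quaternion pair `i, j`, a square root `s` of `5` and an
element `c` of prime order `p ≥ 7`, all of `s, c` commuting with each other and with `i, j`,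
cannot live in a division ring of characteristic zero. -/
def PkgZD : Prop :=
  ∀ (D : Type u) [DivisionRing D] [CharZero D] (i j c s : D) (p : ℕ), p.Prime → 7 ≤ p →
    i * i = -1 → j * j = -1 → i * j = -(j * i) → s * s = 5 →
    Commute c i → Commute c j → Commute s i → Commute s j → Commute c s →
    c ^ p = 1 → c ≠ 1 → False

end Cfsg.Agent.Lib.Lead.Ami
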