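import Cfsg.Agent.Lib.Lead.Ami.ZD
import Cfsg.Agent.Lib.Helper20.Ami.Dir
import Cfsg.Agent.Lib.Helper84.Ami.Thue
import Cfsg.Agent.Lib.Helper80.Ami.Gauss

/-! # AMI: the unconditional division-ring core (step (A) of S4294). -/

namespace Cfsg.Agent.Lib.Lead.Ami

universe u

/-- [ZD], unconditional. -/
theorem pkgZD : PkgZD.{u} :=
  pkgZD_of Cfsg.Agent.Lib.Helper20.Ami.pkgDir Cfsg.Agent.Lib.Helper84.Ami.pkgThue
    Cfsg.Agent.Lib.Helper80.Ami.pkgGauss

/-- Unbundled form: a quaternion pair `i, j`, a square root `s` of `5` and an element `c` of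
prime order `p ≥ 7` commuting with `i, j, s` cannot live in a division ring of characteristic
zero (so `SL(2,5) × C_p` is not a subgroup of its unit group). -/
theorem no_quat_sqrt_five_prime_order {D : Type u} [DivisionRing D] [CharZero D] (i j c s : D)
    (p : ℕ) (hp : p.Prime) (hp7 : 7 ≤ p)
    (hii : i * i = -1) (hjj : j * j = -1) (hij : i * j = -(j * i)) (hss : s * s = 5)
    (hci : Commute c i) (hcj : Commute c j) (hsi : Commute s i) (hsj : Commute s j)
    (hcs : Commute c s) (hcp : c ^ p = 1) (hc1 : c ≠ 1) : False :=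
  pkgZD D i j c s p hp hp7 hii hjj hij hss hci hcj hsi hsj hcs hcp hc1

end Cfsg.Agent.Lib.Lead.Ami
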