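import Mathlib
import Cfsg.Agent.Lib.Lead.Ami.Defs

/-! # AMI [ZD]: the division-ring core from Dirichlet + Thue + Gauss. -/

namespace Cfsg.Agent.Lib.Lead.Ami

open Polynomial

universe u

/-- quaternion bookkeeping: a "vector" `x i + y j + z (i j)` with commuting scalars squares to
`-(x² + y² + z²)`. -/
theorem quat_vec_sq {D : Type u} [Ring D] (i j x y z : D)
    (hii : i * i = -1) (hjj : j * j = -1) (hij : i * j = -(j * i))
    (hxi : Commute x i) (hxj : Commute x j) (hyi : Commute y i) (hyj : Commute y j)
    (hzi : Commute z i) (hzj : Commute z j)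
    (hxy : Commute x y) (hxz : Commute x z) (hyz : Commute y z) :
    (x * i + y * j + z * (i * j)) * (x * i + y * j + z * (i * j)) = -(x * x + y * y + z * z) := by
  have hji : j * i = -(i * j) := by rw [hij, neg_neg]
  have e1 : i * (i * j) = -j := by rw [← mul_assoc, hii]; simp
  have e2 : (i * j) * i = j := by rw [mul_assoc, hji, mul_neg, ← mul_assoc, hii]; simp
  have e3 : j * (i * j) = i := by rw [← mul_assoc, hji, neg_mul, mul_assoc, hjj]; simp
  have e4 : (i * j) * j = -i := by rw [mul_assoc, hjj]; simp
  have e5 : (i * j) * (i * j) = -1 := by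
    rw [mul_assoc, e3, hii]
  have sc : ∀ (a b g h : D), Commute b g → (a * g) * (b * h) = (a * b) * (g * h) := by
    intro a b g h hbg
    rw [mul_assoc a g, ← mul_assoc g b, ← hbg.eq, mul_assoc b g, ← mul_assoc a b]
  have hxk : Commute x (i * j) := hxi.mul_right hxj
  have hyk : Commute y (i * j) := hyi.mul_right hyj
  have hzk : Commute z (i * j) := hzi.mul_right hzj
  have expand : (x * i + y * j + z * (i * j)) * (x * i + y * j + z * (i * j))
      = (x * x) * (i * i) + (x * y) * (i * j) + (x * z) * (i * (i * j))
        + (y * x) * (j * i) + (y * y) * (j * j) + (y * z) * (j * (i * j))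
        + (z * x) * ((i * j) * i) + (z * y) * ((i * j) * j) + (z * z) * ((i * j) * (i * j)) := by
    simp only [add_mul, mul_add]
    rw [sc x x i i hxi, sc x y i j hyi, sc x z i (i * j) hzi,
      sc y x j i hxj, sc y y j j hyj, sc y z j (i * j) hzj,
      sc z x (i * j) i hxk, sc z y (i * j) j hyk, sc z z (i * j) (i * j) hzk]
    abel
  rw [expand, hii, hjj, e1, e2, e3, e4, e5, hji]
  rw [show y * x = x * y from hxy.eq.symm, show z * x = x * z from hxz.eq.symm,
    show z * y = y * z from hyz.eq.symm]
  simp only [mul_neg, mul_one]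
  abel

/-- [ZD] assembly: Dirichlet + Thue + Gauss give the division-ring core. -/
theorem pkgZD_of (hD : PkgDir) (hT : PkgThue) (hG : PkgGauss) : PkgZD.{u} := by
  intro D _ _ i j c s p hp hp7 hii hjj hij hss hci hcj hsi hsj hcs hcp hc1
  obtain ⟨l, hl, hl20, hpl⟩ := hD p hp hp7
  obtain ⟨r, e, hre⟩ := hT l hl hl20
  have hl4 : l % 4 = 3 := by omega
  obtain ⟨N, Y, Z, hN, hYZ⟩ := hG l hl hl4
  have : Fact l.Prime := ⟨hl⟩
  have hcomm : ∀ a ∈ ({c, s} : Set D), ∀ b ∈ ({c, s} : Set D), a * b = b * a := by
    intro a ha b hb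
    rcases ha with rfl | rfl <;> rcases hb with rfl | rfl
    · rfl
    · exact hcs.eq
    · exact hcs.eq.symm
    · rfl
  letI : CommRing (Subring.closure ({c, s} : Set D)) := Subring.closureCommRingOfComm hcomm
  let c' : Subring.closure ({c, s} : Set D) := ⟨c, Subring.subset_closure (by simp)⟩
  let s' : Subring.closure ({c, s} : Set D) := ⟨s, Subring.subset_closure (by simp)⟩
  have hcp' : c' ^ p = 1 := Subtype.ext (by simpa [c'] using hcp)
  have hc1' : c' ≠ 1 := fun h => hc1 (by simpa [c'] using congrArg Subtype.val h)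
  have hss' : s' * s' = 5 := Subtype.ext (by push_cast; exact hss)
  -- evaluation of the polynomial identities at c
  have h1 : (4 * (N : Subring.closure ({c, s} : Set D)) ^ 2) * aeval c' (cyclotomic l ℤ)
      = (aeval c' Y) ^ 2 + (l : Subring.closure ({c, s} : Set D)) * (aeval c' Z) ^ 2 := by
    have hC : aeval c' (C (4 * (N : ℤ) ^ 2)) = 4 * (N : Subring.closure ({c, s} : Set D)) ^ 2 := by
      rw [aeval_C]; simp
    have hCl : aeval c' (C (l : ℤ)) = (l : Subring.closure ({c, s} : Set D)) := by
      rw [aeval_C]; simp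
    have := congrArg (aeval c') hYZ
    rw [map_mul (aeval c'), hC, map_add (aeval c'), map_pow (aeval c'), map_mul (aeval c'), hCl,
      map_pow (aeval c')] at this
    exact this
  have h2 : aeval c' (cyclotomic l ℤ) * (c' - 1) = c' ^ l - 1 := by
    have := congrArg (aeval c') (cyclotomic_prime_mul_X_sub_one ℤ l)
    simpa using this
  have h3 : c' ^ (l + 1) = 1 := by
    obtain ⟨k, hk⟩ := hpl
    rw [hk, pow_mul, hcp', one_pow]
  have h4 : aeval c' (cyclotomic l ℤ) * c' = -1 := by
    have h0 : (aeval c' (cyclotomic l ℤ) * c' + 1) * (c' - 1) = 0 := by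
      linear_combination c' * h2 + h3
    rcases mul_eq_zero.mp h0 with h | h
    · linear_combination h
    · exact absurd (sub_eq_zero.mp h) hc1'
  have hp2 : p % 2 = 1 := by
    rcases hp.eq_two_or_odd with h | h
    · omega
    · exact h
  have ht : c' ^ ((p + 1) / 2) * c' ^ ((p + 1) / 2) = c' := by
    rw [← pow_add]
    have : (p + 1) / 2 + (p + 1) / 2 = p + 1 := by omega
    rw [this, pow_succ, hcp', one_mul]
  have h5 : (4 : Subring.closure ({c, s} : Set D)) * l
      = ((r : Subring.closure ({c, s} : Set D)) + e * s') ^ 2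
        + ((r : Subring.closure ({c, s} : Set D)) - e * s') ^ 2 := by
    have := congrArg (Int.cast : ℤ → Subring.closure ({c, s} : Set D)) hre
    push_cast at this
    linear_combination (-2) * this - 2 * (e : Subring.closure ({c, s} : Set D)) ^ 2 * hss'
  -- the four-square zero in the commutative subring
  obtain ⟨w, x, y, z, hz, key⟩ : ∃ w x y z : Subring.closure ({c, s} : Set D),
      z = 4 * (N : Subring.closure ({c, s} : Set D)) ∧ w * w + x * x + y * y + z * z = 0 := by
    refine ⟨2 * aeval c' Y * c' ^ ((p + 1) / 2),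
      ((r : Subring.closure ({c, s} : Set D)) + e * s') * aeval c' Z * c' ^ ((p + 1) / 2),
      ((r : Subring.closure ({c, s} : Set D)) - e * s') * aeval c' Z * c' ^ ((p + 1) / 2),
      4 * (N : Subring.closure ({c, s} : Set D)), rfl, ?_⟩
    linear_combination
      (4 * (aeval c' Y) ^ 2 + (((r : Subring.closure ({c, s} : Set D)) + e * s') ^ 2
        + ((r : Subring.closure ({c, s} : Set D)) - e * s') ^ 2) * (aeval c' Z) ^ 2) * ht
      - (aeval c' Z) ^ 2 * c' * h5 - 4 * c' * h1
      + 16 * (N : Subring.closure ({c, s} : Set D)) ^ 2 * h4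
  -- back in D
  have hKi : ∀ k : Subring.closure ({c, s} : Set D), Commute (k : D) i := by
    have hle : Subring.closure ({c, s} : Set D) ≤ Subring.centralizer ({i} : Set D) := by
      refine Subring.closure_le.mpr ?_
      intro a ha
      rw [SetLike.mem_coe, Subring.mem_centralizer_iff]
      intro g hg
      rw [Set.mem_singleton_iff] at hg
      subst hg
      rcases ha with rfl | rfl
      · exact hci.eq.symm
      · exact hsi.eq.symm
    intro k
    exact ((Subring.mem_centralizer_iff.mp (hle k.2)) i rfl).symm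
  have hKj : ∀ k : Subring.closure ({c, s} : Set D), Commute (k : D) j := by
    have hle : Subring.closure ({c, s} : Set D) ≤ Subring.centralizer ({j} : Set D) := by
      refine Subring.closure_le.mpr ?_
      intro a ha
      rw [SetLike.mem_coe, Subring.mem_centralizer_iff]
      intro g hg
      rw [Set.mem_singleton_iff] at hg
      subst hg
      rcases ha with rfl | rfl
      · exact hcj.eq.symm
      · exact hsj.eq.symm
    intro k
    exact ((Subring.mem_centralizer_iff.mp (hle k.2)) j rfl).symm
  have hKK : ∀ a b : Subring.closure ({c, s} : Set D), Commute (a : D) (b : D) := by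
    intro a b
    exact congrArg Subtype.val (mul_comm a b)
  have hsum : (w : D) * w + (x : D) * x + (y : D) * y + (z : D) * z = 0 := by
    have := congrArg Subtype.val key
    simpa using this
  have hzD : (z : D) = 4 * (N : D) := by
    rw [hz]; push_cast; rfl
  have hz0 : (z : D) ≠ 0 := by
    rw [hzD]
    exact mul_ne_zero (by norm_num) (Nat.cast_ne_zero.mpr hN)
  have hAA := quat_vec_sq i j (x : D) (y : D) (z : D) hii hjj hij (hKi x) (hKj x) (hKi y) (hKj y)
    (hKi z) (hKj z) (hKK x y) (hKK x z) (hKK y z)
  set A : D := (x : D) * i + (y : D) * j + (z : D) * (i * j) with hA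
  have hwA : Commute (w : D) A := by
    rw [hA]
    exact (((hKK w x).mul_right (hKi w)).add_right ((hKK w y).mul_right (hKj w))).add_right
      ((hKK w z).mul_right ((hKi w).mul_right (hKj w)))
  have hprod : ((w : D) + A) * ((w : D) - A) = 0 := by
    have e1 : ((w : D) + A) * ((w : D) - A) = (w : D) * w - A * A := by
      rw [add_mul, mul_sub, mul_sub, hwA.eq]; abel
    rw [e1, hAA, sub_neg_eq_add, ← hsum]; abel
  have hAi : Commute A i := by
    rcases mul_eq_zero.mp hprod with h | h
    · have : A = -(w : D) := by rw [← sub_eq_zero, sub_neg_eq_add, add_comm]; exact h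
      rw [this]; exact (hKi w).neg_left
    · have : A = (w : D) := (sub_eq_zero.mp h).symm
      rw [this]; exact hKi w
  have hji : j * i = -(i * j) := by rw [hij, neg_neg]
  have q1 : i * (i * j) = -j := by rw [← mul_assoc, hii]; simp
  have q2 : (i * j) * i = j := by rw [mul_assoc, hji, mul_neg, ← mul_assoc, hii]; simp
  have eA1 : A * i = -(x : D) - (y : D) * (i * j) + (z : D) * j := by
    have t1 : (x : D) * i * i = -(x : D) := by rw [mul_assoc, hii, mul_neg, mul_one]
    have t2 : (y : D) * j * i = -((y : D) * (i * j)) := by rw [mul_assoc, hji, mul_neg]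
    have t3 : (z : D) * (i * j) * i = (z : D) * j := by rw [mul_assoc, q2]
    rw [hA, add_mul, add_mul, t1, t2, t3]
    abel
  have eA2 : i * A = -(x : D) + (y : D) * (i * j) - (z : D) * j := by
    have t1 : i * ((x : D) * i) = -(x : D) := by
      rw [← mul_assoc, ← (hKi x).eq, mul_assoc, hii, mul_neg, mul_one]
    have t2 : i * ((y : D) * j) = (y : D) * (i * j) := by
      rw [← mul_assoc, ← (hKi y).eq, mul_assoc]
    have t3 : i * ((z : D) * (i * j)) = -((z : D) * j) := by
      rw [← mul_assoc, ← (hKi z).eq, mul_assoc, q1, mul_neg]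
    rw [hA, mul_add, mul_add, t1, t2, t3]
    abel
  have h2yk : (y : D) * (i * j) = (z : D) * j := by
    have h := hAi.eq
    rw [eA1, eA2] at h
    have h' : (2 : D) * ((y : D) * (i * j)) = 2 * ((z : D) * j) := by
      have : (y : D) * (i * j) + (y : D) * (i * j) = (z : D) * j + (z : D) * j := by
        have h3 := congrArg (fun v => v + (x : D) + (y : D) * (i * j) + (z : D) * j) h
        beta_reduce at h3
        rw [show -(x : D) - (y : D) * (i * j) + (z : D) * j + (x : D) + (y : D) * (i * j) + (z : D) * j
            = (z : D) * j + (z : D) * j by abel,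
          show -(x : D) + (y : D) * (i * j) - (z : D) * j + (x : D) + (y : D) * (i * j) + (z : D) * j
            = (y : D) * (i * j) + (y : D) * (i * j) by abel] at h3
        exact h3.symm
      rw [two_mul, two_mul]; exact this
    exact mul_left_cancel₀ (two_ne_zero) h'
  have hyi : (y : D) * i = (z : D) := by
    have h := congrArg (fun v => v * j) h2yk
    beta_reduce at h
    rw [mul_assoc, mul_assoc, hjj, mul_assoc, hjj] at h
    simp only [mul_neg, mul_one, neg_inj] at h
    exact h
  have hy0 : (y : D) ≠ 0 := by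
    intro h0
    rw [h0, zero_mul] at hyi
    exact hz0 hyi.symm
  have hi : i = (y : D)⁻¹ * (z : D) := by
    rw [← hyi, ← mul_assoc, inv_mul_cancel₀ hy0, one_mul]
  have hcij : Commute i j := by
    rw [hi]
    exact ((hKj y).inv_left₀).mul_left (hKj z)
  have h0 : j * i = 0 := by
    have h : j * i = -(j * i) := by rw [← hij]; exact hcij.eq.symm
    have h2 : (2 : D) * (j * i) = 0 := by rw [two_mul]; nth_rewrite 1 [h]; exact neg_add_cancel _
    rcases mul_eq_zero.mp h2 with h | h
    · exact absurd h two_ne_zero
    · exact h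
  rcases mul_eq_zero.mp h0 with h | h
  · rw [h, mul_zero] at hjj; exact one_ne_zero (neg_eq_zero.mp hjj.symm)
  · rw [h, mul_zero] at hii; exact one_ne_zero (neg_eq_zero.mp hii.symm)

end Cfsg.Agent.Lib.Lead.Ami
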